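import Cfsg.Agent.FischerGQ.Cert.FiveA.Data

/-! Generated: checks of facts. -/

set_option autoImplicit false
set_option maxRecDepth 100000

namespace CfsgLib.FischerGQ.Cert.FiveA

open CfsgLib.CosetEnum

theorem facts0 : checkFacts epF (fun x => x) words 131 0 [0x1, 0x8400003, 0x8500003, 0x8600003, 0x8700003, 0x8800003, 0x8900003, 0x0, 0xe000040000f00003000070001900006, 0x0, 0x0, 0x140001000015000000000a0000d00006, 0x0, 0x0, 0x18000130001b000000000c0001100006, 0x0, 0x0, 0x0, 0x2000014000130001f0002300005000110001000008, 0x2400020000140000e0000800006000080000f0001500021000250000000011000210000e, 0x0, 0x28000160002900000000140000e00006, 0x0, 0x0, 0x2c0001800015000290002f00005000170001300008, 0x0, 0x0, 0x0, 0x340002300037000000001a0001100006, 0x0, 0x340001e0001b000330003b000000001a0001300008, 0x330003b0003c000390002c000180000e0000a0000800006000080000a00008000060000a0000f000190001d0000e0000d0004500015, 0x370003e0000000003, 0x40000310000000003, 0x2f000430000000003, 0x44000240000000003, 0x470002a000460000000004, 0x21000480002000016000210004800006000100000c00009, 0x240004a0000000003, 0x4c000140000000003, 0x4f000260004e0000000004,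 0x500000e0000000003, 0xf000520000000003] = true := by
  decide +kernel

theorem factsUpTo43 (h : FactsChecked cert.ep cert.iv cert.words cert.nr 0) :
    FactsChecked cert.ep cert.iv cert.words cert.nr 43 :=
  (FactsChecked.app _ 43 h facts0 rfl)

end CfsgLib.FischerGQ.Cert.FiveA
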